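import Cfsg.Agent.H849.O9.Fin
import Cfsg.Agent.H529.O9.Bridge
import Mathlib.LinearAlgebra.Determinant

/-!
# `Cov NB` from the certificate (helper849, S2464, `Ω₉(3)`)
-/

set_option autoImplicit false

namespace Cfsg.Agent.H849.O9

open Subgroup Cfsg.Agent.H529.O9

/-- `-1` -/
def ng : V9 ≃ₗ[ZMod 3] V9 := LinearEquiv.neg (ZMod 3)

theorem ng_apply (v : V9) : ng v = -v := rfl

theorem ng_mem : ng ∈ OB := by
  intro x y
  rw [ng_apply, ng_apply]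
  unfold B
  simp only [Pi.neg_apply]
  ring

theorem ng_sq : ng * ng = 1 := by
  ext v
  rw [LinearEquiv.mul_apply, ng_apply, ng_apply, neg_neg]
  rfl

theorem ng_comm (X : V9 ≃ₗ[ZMod 3] V9) : ng * X = X * ng := by
  ext v : 1
  rw [LinearEquiv.mul_apply, LinearEquiv.mul_apply, ng_apply, ng_apply, map_neg]

theorem det_NB {g : V9 ≃ₗ[ZMod 3] V9} (h : g ∈ NB) : LinearEquiv.det g = 1 := by
  have h1 : NB ≤ (LinearEquiv.det (R := ZMod 3) (M := V9)).ker := by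
    refine commutator_le.2 fun a _ b _ => ?_
    rw [MonoidHom.mem_ker, map_commutatorElement, commutatorElement_eq_one_iff_mul_comm, mul_comm]
  exact h1 h

theorem det_ng : ((LinearEquiv.det ng : (ZMod 3)ˣ) : ZMod 3) = -1 := by
  rw [LinearEquiv.coe_det]
  have h : (ng : V9 →ₗ[ZMod 3] V9) = (-1 : ZMod 3) • LinearMap.id := by
    refine LinearMap.ext fun v => ?_
    rw [LinearMap.smul_apply, LinearMap.id_apply, neg_one_smul]
    rfl
  rw [h, LinearMap.det_smul, LinearMap.det_id, Module.finrank_fin_fun]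
  decide

theorem ng_not_mem : ng ∉ NB := by
  intro h
  have h1 := det_NB h
  have h2 := det_ng
  rw [h1, Units.val_one] at h2
  exact absurd h2 (by decide)

/-- **`Cov NB`**: `τ` commutes with `X` and `Y`, `τ ∉ NB`, `-τ ∉ NB`. -/
theorem cov_NB {X Y τ : V9 ≃ₗ[ZMod 3] V9} (hX : X ∈ OB) (hY : Y ∈ OB) (hτ : τ ∈ OB) (hX41 : X ^ 41 = 1)
    (hY41 : Y ^ 41 = 1) (hX1 : X ≠ 1) (hY1 : Y ≠ 1) (hτX : τ * X = X * τ) (hτY : τ * Y = Y * τ) (h2 : τ ∉ NB)
    (h3 : ng * τ ∉ NB)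
    (hcov : ∀ g ∈ NB, g = 1 ∨ ∃ a ∈ OB, ∃ p ∈ OB, g = a * (X * (p * Y * p⁻¹)) * a⁻¹) : Cov NB :=
  fin_step NB_le (fun _ ha _ hx => NB_conj ha hx) (by rw [card_NB]; norm_num) (by rw [card_OB, card_NB]) ng_mem hτ ng_sq
    ng_not_mem h2 h3 hX hY hX41 hY41 hX1 hY1 (ng_comm X) (ng_comm Y) hτX hτY hcov

end Cfsg.Agent.H849.O9
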